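import Cfsg.Agent.TwoGenClassical.OrthTwoGen
import Cfsg.Agent.OrthGeo.Forms

/-! Two-generation of the orthogonal groups of plus type. -/

set_option autoImplicit false
set_option linter.unusedSectionVars false
set_option linter.style.haveILetI false

namespace CfsgLib.TwoGenClassical

open Cfsg.Geo CfsgLib.OrthGeo
open scoped Matrix MatrixGroups

variable {F : Type*} [Field F]

theorem polar_plus (m : ℕ) (u v : Fin m ⊕ Fin m → F) :
    QuadraticMap.polar (Cfsg.quadFormPlus m F) u v =
      ∑ i, (u (.inl i) * v (.inr i) + u (.inr i) * v (.inl i)) := by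
  simp only [QuadraticMap.polar, Cfsg.quadFormPlus, Pi.add_apply, add_mul, mul_add, Finset.sum_add_distrib,
    mul_comm (v (.inl _))]
  ring

/-- The frame of all but the last hyperbolic pair. -/
def plusData (n : ℕ) (hn : 2 ≤ n) : OData (Cfsg.quadFormPlus (n + 1) F) n where
  hQ := isNondegenerateQuadraticForm_quadFormPlus (n + 1)
  dim := by simp; omega
  z p := Pi.single (p.map Fin.castSucc Fin.castSucc) 1
  sing p := by rcases p with i | i <;> simp [Cfsg.quadFormPlus, Pi.single_apply]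
  pairing p q := by
    rw [bform_apply, polar_plus]
    rcases p with i | i <;> rcases q with j | j <;>
      simp [opp, Pi.single_apply, eq_comm]

theorem plus_two_generated [Finite F] (n : ℕ) (hn : 3 ≤ n) :
    ∃ a b : ↥(omegaGL (Cfsg.quadFormPlus (n + 1) F)),
      Subgroup.closure ({a, b} : Set ↥(omegaGL (Cfsg.quadFormPlus (n + 1) F))) = ⊤ := by
  classical
  haveI : NeZero n := ⟨by omega⟩
  have hn2 : 2 ≤ n := by omega
  set D := plusData (F := F) n hn2
  obtain ⟨k, hk, hord⟩ := exists_gen (F := F)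
  set E : Fin (n + 1) ⊕ Fin (n + 1) → F := Pi.single (.inl (Fin.last n)) 1 with hE
  set G : Fin (n + 1) ⊕ Fin (n + 1) → F := Pi.single (.inr (Fin.last n)) 1 with hG
  have hB : ∀ x p, bform D.hQ (D.z p) x = x ((opp p).map Fin.castSucc Fin.castSucc) := by
    intro x p
    rw [bform_apply, polar_plus]
    rcases p with i | i <;> simp [D, plusData, opp, Pi.single_apply]
  have hne : ∀ i : Fin n, i.castSucc ≠ Fin.last n := fun i => (Fin.castSucc_lt_last i).ne
  have hEP : Frame.Perp (oFrame D) E := (perp_iff D).2 fun p => by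
    rw [hB, hE]; rcases p with i | i <;> simp [opp, hne]
  have hGP : Frame.Perp (oFrame D) G := (perp_iff D).2 fun p => by
    rw [hB, hG]; rcases p with i | i <;> simp [opp, hne]
  have hbEG : bform D.hQ E G = 1 := by
    rw [bform_apply, polar_plus]; simp [hE, hG, Pi.single_apply]
  have hQE : Cfsg.quadFormPlus (n + 1) F E = 0 := by simp [Cfsg.quadFormPlus, hE]
  have hQG : Cfsg.quadFormPlus (n + 1) F G = 0 := by simp [Cfsg.quadFormPlus, hG]
  have hv : Cfsg.quadFormPlus (n + 1) F (E + G) = 1 := by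
    rw [q_add D.hQ, hQE, hQG, hbEG]; ring
  have hp : Frame.Perp (oFrame D) (E + G) := fun p => by rw [(oFrame D).add_left, hEP p, hGP p, add_zero]
  have hperp : ∀ x, Frame.Perp (oFrame D) x →
      x = x (.inl (Fin.last n)) • E + x (.inr (Fin.last n)) • G := by
    intro x hx
    funext j
    rcases j with j | j <;> induction j using Fin.lastCases with
    | last => simp [hE, hG]
    | cast i =>
      first
        | (have := (perp_iff D).1 hx (.inr i); rw [hB] at this
           simp [hE, hG, hne, opp] at this ⊢; exact this)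
        | (have := (perp_iff D).1 hx (.inl i); rw [hB] at this
           simp [hE, hG, hne, opp] at this ⊢; exact this)
  have hbE : bform D.hQ (E + G) E = 1 := by
    rw [map_add, LinearMap.add_apply, b_self_eq_zero D.hQ hQE, b_symm D.hQ, hbEG, zero_add]
  have hbG : bform D.hQ (E + G) G = 1 := by
    rw [map_add, LinearMap.add_apply, b_self_eq_zero D.hQ hQG, hbEG, add_zero]
  have hplane : ∀ s y, Frame.Perp (oFrame D) s → Frame.Perp (oFrame D) y → s ≠ 0 →
      Cfsg.quadFormPlus (n + 1) F s = 0 → bform D.hQ s y = 0 → ∃ c : F, y = c • s := by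
    intro s y hs hy hs0 hQs hb
    obtain ⟨a, b, es⟩ : ∃ a b : F, s = a • E + b • G := ⟨_, _, hperp s hs⟩
    obtain ⟨c, d, ey⟩ : ∃ c d : F, y = c • E + d • G := ⟨_, _, hperp y hy⟩
    have hab : a * b = 0 := by
      rw [es, q_add D.hQ, q_smul D.hQ, q_smul D.hQ, hQE, hQG, map_smul, map_smul, LinearMap.smul_apply, hbEG,
        smul_eq_mul, smul_eq_mul, mul_one] at hQs
      linear_combination hQs
    have hcd : a * d + b * c = 0 := by
      rw [es, ey] at hb
      simp only [map_add, map_smul, LinearMap.add_apply, LinearMap.smul_apply, b_self_eq_zero D.hQ hQE,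
        b_self_eq_zero D.hQ hQG, hbEG, b_symm D.hQ G E, smul_eq_mul] at hb
      linear_combination hb
    rcases mul_eq_zero.1 hab with ha | hb'
    · have hb0 : b ≠ 0 := fun h => hs0 (by rw [es, ha, h, zero_smul, zero_smul, add_zero])
      have hc : c = 0 := by
        rw [ha, zero_mul, zero_add] at hcd; exact (mul_eq_zero.1 hcd).resolve_left hb0
      refine ⟨d / b, ?_⟩
      rw [ey, es, ha, hc, zero_smul, zero_add, zero_add, smul_smul, div_mul_cancel₀ _ hb0]
    · have ha0 : a ≠ 0 := fun h => hs0 (by rw [es, hb', h, zero_smul, zero_smul, add_zero])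
      have hd : d = 0 := by
        rw [hb', zero_mul, add_zero] at hcd; exact (mul_eq_zero.1 hcd).resolve_left ha0
      refine ⟨c / a, ?_⟩
      rw [ey, es, hb', hd, zero_smul, add_zero, add_zero, smul_smul, div_mul_cancel₀ _ ha0]
  obtain ⟨-, p1, -, -⟩ := pos_values (n := n) hn2
  by_cases hk1 : (k : F) ≠ 1
  · refine ⟨oB D ⟨E, hEP⟩ * oShift D hv,
      (oFrame D).X (Sum.inl 0) (Sum.inr (secondIdx n)) 1 * oTor D (k : F), ?_⟩
    obtain ⟨hwS, hP, hline⟩ := orth_core D hv hp hn2 hk hk1 ⟨E, hEP⟩ _ rfl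
    refine orth_finish D hv hp hn2 hwS hP hEP hline
      (fun x hx => ⟨x (.inl (Fin.last n)), -x (.inr (Fin.last n)), ?_⟩) hplane
    rw [hbE]
    nth_rw 1 [hperp x hx]
    module
  -- the field with two elements
  push Not at hk1
  have hcard : Nat.card F = 2 := by
    rw [hk1, orderOf_one] at hord
    have : 2 ≤ Nat.card F := Finite.one_lt_card
    omega
  haveI : Fintype F := Fintype.ofFinite F
  haveI : CharP F 2 := charP_of_card_eq_prime (by rw [← hcard, Nat.card_eq_fintype_card])
  have one_eq : ∀ t : F, t = 0 ∨ t = 1 := by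
    intro t
    by_contra hne
    push Not at hne
    rw [Nat.card_eq_fintype_card] at hcard
    have : ({0, 1, t} : Finset F).card = 3 := by
      rw [Finset.card_insert_of_notMem (by simp [hne.1.symm]), Finset.card_insert_of_notMem
        (by simp [hne.2.symm]), Finset.card_singleton]
    have := Finset.card_le_univ ({0, 1, t} : Finset F)
    omega
  let i2 : Fin n := ⟨2, by omega⟩
  set e2 := D.z (.inl i2) with he2
  set f2 := D.z (.inr i2) with hf2
  have h1 : bform D.hQ e2 G = 0 := (perp_iff D).1 hGP _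
  have h2 : bform D.hQ f2 E = 0 := (perp_iff D).1 hEP _
  let z3 : ↥(omegaGL (Cfsg.quadFormPlus (n + 1) F)) :=
    ⟨eichler D.hQ (D.sing (.inl i2)) h1 * eichler D.hQ (D.sing (.inr i2)) h2,
      mul_mem (eichler_mem_omega D.hQ D.dim _ _) (eichler_mem_omega D.hQ D.dim _ _)⟩
  have hbef : bform D.hQ e2 f2 = 1 := by simp [he2, hf2, D.pairing, opp]
  have h3 : bform D.hQ e2 E = 0 := (perp_iff D).1 hEP _
  have h4 : bform D.hQ f2 G = 0 := (perp_iff D).1 hGP _
  have hv3 : ∀ x, Frame.v (oFrame D) z3 x = x + bform D.hQ E x • f2 - bform D.hQ f2 x • E +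
      (bform D.hQ G x - bform D.hQ f2 x) • e2 - (bform D.hQ e2 x + bform D.hQ E x) • G := by
    intro x
    simp only [oFrame_v, z3, Units.val_mul, ← Matrix.mulVec_mulVec, eichler_mulVec D.hQ, hQE, hQG, map_add,
      map_sub, map_smul, smul_eq_mul, ← he2, ← hf2, hbef, h3, h4, b_symm D.hQ G f2, b_symm D.hQ G E, hbEG]
    match_scalars <;> ring
  have hz3 : z3 ^ 3 = 1 := by
    refine Frame.ext_v (oFrame D) fun x => ?_
    rw [pow_succ, pow_two, Frame.v_mul, Frame.v_mul, Frame.v_one]
    simp only [hv3, map_add, map_sub, map_smul, smul_eq_mul, hbef, h1, h2, h3, h4, b_symm D.hQ f2 e2,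
      b_symm D.hQ E e2, b_symm D.hQ E f2, b_symm D.hQ G e2, b_symm D.hQ G f2, b_symm D.hQ G E, hbEG,
      b_self_eq_zero D.hQ hQE, b_self_eq_zero D.hQ hQG,
      b_self_eq_zero D.hQ (show Cfsg.quadFormPlus (n + 1) F e2 = 0 from D.sing _),
      b_self_eq_zero D.hQ (show Cfsg.quadFormPlus (n + 1) F f2 = 0 from D.sing _)]
    have c2 : (2 : F) = 0 := CharTwo.two_eq_zero
    match_scalars <;> ring_nf <;> simp [c2]
  have hfixz : ∀ p : Idx n, p ≠ .inl i2 → p ≠ .inr i2 → Frame.v (oFrame D) z3 (D.z p) = D.z p := by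
    intro p hp1 hp2
    have a1 : bform D.hQ f2 (D.z p) = 0 := by rw [hf2, D.pairing, if_neg (by simpa [opp] using hp1)]
    have a2 : bform D.hQ e2 (D.z p) = 0 := by rw [he2, D.pairing, if_neg (by simpa [opp] using hp2)]
    rw [hv3, a1, a2, show bform D.hQ E (D.z p) = 0 from hEP p, show bform D.hQ G (D.z p) = 0 from hGP p]
    simp
  have hf0 : Frame.v (oFrame D) z3 (D.z (Sum.inl 0)) = D.z (Sum.inl 0) :=
    hfixz _ (by simp [i2, Fin.ext_iff]) (by simp)
  have hf1 : Frame.v (oFrame D) z3 (D.z (Sum.inr (secondIdx n))) = D.z (Sum.inr (secondIdx n)) :=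
    hfixz _ (by simp) (by simp [i2, secondIdx, Fin.ext_iff, Fin.ofNat, Nat.mod_eq_of_lt (show 1 < n by omega)])
  refine ⟨oShift D hv, (oFrame D).X (Sum.inl 0) (Sum.inr (secondIdx n)) 1 * z3, ?_⟩
  obtain ⟨hwS, hP, hzS⟩ := orth_core_two D hv hp hn2 hcard z3 hz3 hf0 hf1 _ rfl
  set S := Subgroup.closure ({oShift D hv, (oFrame D).X (Sum.inl 0) (Sum.inr (secondIdx n)) 1 * z3} : Set _)
  have hbad : Far (Sum.inl 0 : Idx n) (.inl i2) :=
    ⟨by simp [i2, Fin.ext_iff], by simp [opp]⟩
  have hz3e : Frame.v (oFrame D) z3 e2 = -E := by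
    rw [hv3, show bform D.hQ f2 e2 = 1 from (b_symm D.hQ _ _).trans hbef,
      show bform D.hQ E e2 = 0 from (b_symm D.hQ _ _).trans h3,
      show bform D.hQ G e2 = 0 from (b_symm D.hQ _ _).trans h1,
      b_self_eq_zero D.hQ (show Cfsg.quadFormPlus (n + 1) F e2 = 0 from D.sing _)]
    module
  have hE0 : EIn (Cfsg.quadFormPlus (n + 1) F) (img S) (D.z (Sum.inl 0)) E := by
    have := eIn_conj D S hzS (D.sing _) (by rw [D.pairing, if_neg hbad.2])
      (by simpa using eIn_of_P D S hbad (hP _ _ hbad) 1)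
    rw [← he2, hf0, hz3e] at this
    have h := this.neg D.hQ (D.sing _) (by rw [map_neg, (perp_iff D).1 hEP, neg_zero])
    rwa [neg_neg] at h
  obtain ⟨p0, -, -, -⟩ := pos_values (n := n) hn2
  have hw0 := eIn_conj D S hwS (D.sing _) ((perp_iff D).1 hEP _) hE0
  obtain ⟨a, ha, e⟩ := oShift_isShift D hv hp 0
  rw [zero_add, p0, p1, oFrame_z, oFrame_z] at e
  rw [e, oShift_perp D hv hp hEP, hbE, one_smul] at hw0
  rw [(one_eq a).resolve_left ha, one_smul, sub_add_cancel_left] at hw0
  have hG1 := hw0.neg D.hQ (D.sing _) (by rw [map_neg, (perp_iff D).1 hGP, neg_zero])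
  rw [neg_neg, ← p1] at hG1
  refine orth_finish D hv hp hn2 hwS hP hGP (fun t => ?_)
    (fun x hx => ⟨x (.inr (Fin.last n)), -x (.inl (Fin.last n)), ?_⟩) hplane
  · rcases one_eq t with rfl | rfl
    · rw [zero_smul]; exact eIn_zero D S (D.sing _)
    · rw [one_smul]; exact hG1
  · rw [hbG]
    nth_rw 1 [hperp x hx]
    module

end CfsgLib.TwoGenClassical
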