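import Cfsg.Agent.TwoGenClassical.OrthTwoGen
import Cfsg.Agent.OrthGeo.Forms

/-! Two-generation of the orthogonal groups of minus type. -/

set_option autoImplicit false
set_option linter.unusedSectionVars false
set_option linter.style.haveILetI false

namespace CfsgLib.TwoGenClassical

open Cfsg.Geo CfsgLib.OrthGeo
open scoped Matrix MatrixGroups

variable {F : Type*} [Field F]

theorem polar_minus (n : ℕ) (a b : F) (u v : (Fin n ⊕ Fin n) ⊕ Fin 2 → F) :
    QuadraticMap.polar (Cfsg.quadFormMinus n F a b) u v =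
      ∑ i, (u (.inl (.inl i)) * v (.inl (.inr i)) + u (.inl (.inr i)) * v (.inl (.inl i))) +
      (2 * u (.inr 0) * v (.inr 0) + a * (u (.inr 0) * v (.inr 1) + u (.inr 1) * v (.inr 0)) +
        2 * b * u (.inr 1) * v (.inr 1)) := by
  simp only [QuadraticMap.polar, Cfsg.quadFormMinus, Pi.add_apply, add_mul, mul_add, Finset.sum_add_distrib,
    mul_comm (v (.inl (.inl _)))]
  ring

/-- The hyperbolic part of a minus-type form. -/
def minusData (n : ℕ) (hn : 2 ≤ n) (a b : F) (hd : 4 * b - a ^ 2 ≠ 0) :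
    OData (Cfsg.quadFormMinus n F a b) n where
  hQ := isNondegenerateQuadraticForm_quadFormMinus n a b hd
  dim := by simp; omega
  z p := Pi.single (.inl p) 1
  sing p := by rcases p with i | i <;> simp [Cfsg.quadFormMinus, Pi.single_apply]
  pairing p q := by
    rw [bform_apply, polar_minus]
    rcases p with i | i <;> rcases q with j | j <;> simp [opp, Pi.single_apply, eq_comm]

theorem minus_two_generated [Finite F] (n : ℕ) (hn : 3 ≤ n) (a b : F)
    (hab : ∀ z₁ z₂ : F, z₁ ^ 2 + a * z₁ * z₂ + b * z₂ ^ 2 = 0 → z₁ = 0 ∧ z₂ = 0) :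
    ∃ g h : ↥(omegaGL (Cfsg.quadFormMinus n F a b)),
      Subgroup.closure ({g, h} : Set ↥(omegaGL (Cfsg.quadFormMinus n F a b))) = ⊤ := by
  classical
  haveI : NeZero n := ⟨by omega⟩
  have hn2 : 2 ≤ n := by omega
  have hd := discr_ne_zero_of_anisotropic a b hab
  set D := minusData n hn2 a b hd
  obtain ⟨k, hk, hord⟩ := exists_gen (F := F)
  set v1 : (Fin n ⊕ Fin n) ⊕ Fin 2 → F := Pi.single (.inr 0) 1 with hv1def
  set y : (Fin n ⊕ Fin n) ⊕ Fin 2 → F := Pi.single (.inr 1) 1 with hydef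
  have hB : ∀ x p, bform D.hQ (D.z p) x = x (.inl (opp p)) := by
    intro x p
    rw [bform_apply, polar_minus]
    rcases p with i | i <;> simp [D, minusData, opp, Pi.single_apply]
  have hv : Cfsg.quadFormMinus n F a b v1 = 1 := by simp [Cfsg.quadFormMinus, hv1def]
  have hQy : Cfsg.quadFormMinus n F a b y = b := by simp [Cfsg.quadFormMinus, hydef]
  have hby : bform D.hQ v1 y = a := by rw [bform_apply, polar_minus]; simp [hv1def, hydef]
  have hbv : bform D.hQ v1 v1 = 2 := by rw [b_self D.hQ, hv, mul_one]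
  have hp : Frame.Perp (oFrame D) v1 := (perp_iff D).2 fun p => by rw [hB, hv1def]; simp
  have hyP : Frame.Perp (oFrame D) y := (perp_iff D).2 fun p => by rw [hB, hydef]; simp
  have hperp : ∀ x, Frame.Perp (oFrame D) x → x = x (.inr 0) • v1 + x (.inr 1) • y := by
    intro x hx
    funext j
    rcases j with j | j
    · have := (perp_iff D).1 hx (opp j)
      rw [hB, opp_opp] at this
      simp [hv1def, hydef, this]
    · fin_cases j <;> simp [hv1def, hydef]
  have hplane : ∀ s w, Frame.Perp (oFrame D) s → Frame.Perp (oFrame D) w → s ≠ 0 →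
      Cfsg.quadFormMinus n F a b s = 0 → bform D.hQ s w = 0 → ∃ c : F, w = c • s := by
    intro s w hs _ hs0 hQs _
    exfalso
    have e := hperp s hs
    rw [e, q_add D.hQ, q_smul D.hQ, q_smul D.hQ, hv, hQy, map_smul, map_smul, LinearMap.smul_apply, hby,
      smul_eq_mul, smul_eq_mul] at hQs
    obtain ⟨h0, h1⟩ := hab (s (.inr 0)) (s (.inr 1)) (by linear_combination hQs)
    exact hs0 (by rw [e, h0, h1, zero_smul, zero_smul, add_zero])
  -- a perpendicular vector whose pairing with `v1` is non-zero, independent of `v1`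
  have hspan : ∀ (c : F), a + 2 * c ≠ 0 → ∀ x, Frame.Perp (oFrame D) x →
      ∃ s t : F, x = s • (y + c • v1) + t • ((y + c • v1) - bform D.hQ v1 (y + c • v1) • v1) := by
    intro c hc x hx
    rw [map_add, map_smul, hby, hbv, smul_eq_mul]
    refine ⟨x (.inr 1) - (x (.inr 1) * c - x (.inr 0)) / (a + c * 2),
      (x (.inr 1) * c - x (.inr 0)) / (a + c * 2), ?_⟩
    nth_rw 1 [hperp x hx]
    have : a + c * 2 ≠ 0 := by rwa [mul_comm] at hc
    match_scalars
    · field_simp
      ring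
    · field_simp
      ring
  by_cases hk1 : (k : F) ≠ 1
  · obtain ⟨c, hc⟩ : ∃ c : F, a + 2 * c ≠ 0 := by
      by_cases ha : a = 0
      · refine ⟨1, fun h => hd ?_⟩
        rw [ha, zero_add, mul_one] at h
        rw [ha]; linear_combination 2 * b * h
      · exact ⟨0, by rwa [mul_zero, add_zero]⟩
    have hxP : Frame.Perp (oFrame D) (y + c • v1) := fun p => by
      rw [(oFrame D).add_left, Frame.smul_left, hyP p, hp p, mul_zero, add_zero]
    refine ⟨oB D ⟨_, hxP⟩ * oShift D hv,
      (oFrame D).X (Sum.inl 0) (Sum.inr (secondIdx n)) 1 * oTor D (k : F), ?_⟩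
    obtain ⟨hwS, hP, hline⟩ := orth_core D hv hp hn2 hk hk1 ⟨_, hxP⟩ _ rfl
    exact orth_finish D hv hp hn2 hwS hP hxP hline (hspan c hc) hplane
  -- the field with two elements
  push Not at hk1
  have hcard : Nat.card F = 2 := by
    rw [hk1, orderOf_one] at hord
    have : 2 ≤ Nat.card F := Finite.one_lt_card
    omega
  haveI : Fintype F := Fintype.ofFinite F
  haveI : CharP F 2 := charP_of_card_eq_prime (by rw [← hcard, Nat.card_eq_fintype_card])
  have c2 : (2 : F) = 0 := CharTwo.two_eq_zero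
  have one_eq : ∀ t : F, t = 0 ∨ t = 1 := by
    intro t
    by_contra hne
    push Not at hne
    rw [Nat.card_eq_fintype_card] at hcard
    have : ({0, 1, t} : Finset F).card = 3 := by
      rw [Finset.card_insert_of_notMem (by simp [hne.1.symm]), Finset.card_insert_of_notMem
        (by simp [hne.2.symm]), Finset.card_singleton]
    have := Finset.card_le_univ ({0, 1, t} : Finset F)
    omega
  have ha : a = 1 := (one_eq a).resolve_left fun h => hd (by rw [h]; linear_combination 2 * b * c2)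
  have hb : b = 1 := (one_eq b).resolve_left fun h => one_ne_zero (hab 0 1 (by rw [h]; ring)).2
  replace hQy := hQy.trans hb
  replace hby := hby.trans ha
  let i2 : Fin n := ⟨2, by omega⟩
  set e2 := D.z (.inl i2) with he2
  set f2 := D.z (.inr i2) with hf2
  have h1 : bform D.hQ e2 y = 0 := (perp_iff D).1 hyP _
  have h2 : bform D.hQ f2 y = 0 := (perp_iff D).1 hyP _
  have hbef : bform D.hQ e2 f2 = 1 := by simp [he2, hf2, D.pairing, opp]
  let z3 : ↥(omegaGL (Cfsg.quadFormMinus n F a b)) :=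
    ⟨eichler D.hQ (D.sing (.inl i2)) h1 * eichler D.hQ (D.sing (.inr i2)) h2,
      mul_mem (eichler_mem_omega D.hQ D.dim _ _) (eichler_mem_omega D.hQ D.dim _ _)⟩
  have hv3 : ∀ x, Frame.v (oFrame D) z3 x =
      x + (bform D.hQ y x - bform D.hQ f2 x) • f2
        + (bform D.hQ y x - 2 * bform D.hQ f2 x - (bform D.hQ e2 x + (bform D.hQ y x - bform D.hQ f2 x))) • e2
        - (bform D.hQ f2 x + (bform D.hQ e2 x + (bform D.hQ y x - bform D.hQ f2 x))) • y := by
    intro x
    simp only [oFrame_v, z3, Units.val_mul, ← Matrix.mulVec_mulVec, eichler_mulVec D.hQ, map_add, map_sub,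
      map_smul, smul_eq_mul, ← he2, ← hf2, hbef, h1, h2, b_symm D.hQ y f2, b_self D.hQ y, hQy]
    match_scalars <;> ring
  have hz3 : z3 ^ 3 = 1 := by
    refine Frame.ext_v (oFrame D) fun x => ?_
    rw [pow_succ, pow_two, Frame.v_mul, Frame.v_mul, Frame.v_one]
    simp only [hv3, map_add, map_sub, map_smul, smul_eq_mul, hbef, h1, h2, b_symm D.hQ f2 e2,
      b_symm D.hQ y e2, b_symm D.hQ y f2, b_self D.hQ y, hQy,
      b_self_eq_zero D.hQ (show Cfsg.quadFormMinus n F a b e2 = 0 from D.sing _),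
      b_self_eq_zero D.hQ (show Cfsg.quadFormMinus n F a b f2 = 0 from D.sing _)]
    match_scalars <;> ring_nf
  have hfixz : ∀ p : Idx n, p ≠ .inl i2 → p ≠ .inr i2 → Frame.v (oFrame D) z3 (D.z p) = D.z p := by
    intro p hp1 hp2
    have a1 : bform D.hQ f2 (D.z p) = 0 := by rw [hf2, D.pairing, if_neg (by simpa [opp] using hp1)]
    have a2 : bform D.hQ e2 (D.z p) = 0 := by rw [he2, D.pairing, if_neg (by simpa [opp] using hp2)]
    rw [hv3, a1, a2, show bform D.hQ y (D.z p) = 0 from hyP p]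
    simp
  have hf0 : Frame.v (oFrame D) z3 (D.z (Sum.inl 0)) = D.z (Sum.inl 0) :=
    hfixz _ (by simp [i2, Fin.ext_iff]) (by simp)
  have hf1 : Frame.v (oFrame D) z3 (D.z (Sum.inr (secondIdx n))) = D.z (Sum.inr (secondIdx n)) :=
    hfixz _ (by simp) (by simp [i2, secondIdx, Fin.ext_iff, Fin.ofNat, Nat.mod_eq_of_lt (show 1 < n by omega)])
  refine ⟨oShift D hv, (oFrame D).X (Sum.inl 0) (Sum.inr (secondIdx n)) 1 * z3, ?_⟩
  obtain ⟨hwS, hP, hzS⟩ := orth_core_two D hv hp hn2 hcard z3 hz3 hf0 hf1 _ rfl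
  set S := Subgroup.closure ({oShift D hv, (oFrame D).X (Sum.inl 0) (Sum.inr (secondIdx n)) 1 * z3} : Set _)
  have hbad : Far (Sum.inl 0 : Idx n) (.inr i2) := ⟨by simp, by simp [opp, i2, Fin.ext_iff]⟩
  have hz3f : Frame.v (oFrame D) z3 f2 = f2 - e2 - y := by
    rw [hv3, hbef, show bform D.hQ y f2 = 0 from (b_symm D.hQ _ _).trans h2,
      b_self_eq_zero D.hQ (show Cfsg.quadFormMinus n F a b f2 = 0 from D.sing _)]
    module
  have hb0 : bform D.hQ (D.z (Sum.inl 0)) f2 = 0 := by rw [hf2, D.pairing, if_neg hbad.2]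
  have hc := eIn_conj D S hzS (D.sing _) hb0 (by simpa using eIn_of_P D S hbad (hP _ _ hbad) 1)
  rw [hf0, hz3f] at hc
  obtain ⟨p0, p1, -, -⟩ := pos_values (n := n) hn2
  have hbe : bform D.hQ (D.z (Sum.inl 0)) e2 = 0 := by rw [he2, D.pairing, if_neg (by simp [opp])]
  have hyy : bform D.hQ (D.z (Sum.inl 0)) y = 0 := (perp_iff D).1 hyP _
  have hpp := eIn_perpPart D hp hP (by rw [map_sub, map_sub, hb0, hbe, hyy, sub_zero, sub_zero]) hc
  have hpart : Frame.perpPart (oFrame D) (f2 - e2 - y) = -y := by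
    have hfp : ∀ x : (Fin n ⊕ Fin n) ⊕ Fin 2 → F, Frame.Perp (oFrame D) (Frame.perpPart (oFrame D) x) :=
      Frame.perp_perpPart _
    rw [hperp _ (hfp _)]
    have hz : ∀ (p : Idx n) (j : Fin 2), D.z p (.inr j) = 0 := fun p j => by simp [D, minusData]
    have hcoord : ∀ (x : (Fin n ⊕ Fin n) ⊕ Fin 2 → F) (j : Fin 2),
        Frame.perpPart (oFrame D) x (.inr j) = x (.inr j) := fun x j => by
      simp [Frame.perpPart, oFrame_z, hz, Finset.sum_apply]
    rw [hcoord, hcoord]
    simp [he2, hf2, hz, hydef, hv1def]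
  rw [hpart] at hpp
  have hy0 : EIn (Cfsg.quadFormMinus n F a b) (img S) (D.z (Sum.inl 0)) y := by
    have h := hpp.neg D.hQ (D.sing _) (by rw [map_neg, hyy, neg_zero])
    rwa [neg_neg] at h
  have hw0 := eIn_conj D S hwS (D.sing _) hyy hy0
  obtain ⟨s, hs, e⟩ := oShift_isShift D hv hp 0
  rw [zero_add, p0, p1, oFrame_z, oFrame_z] at e
  rw [e, oShift_perp D hv hp hyP, hby, (one_eq s).resolve_left hs, one_smul, one_smul] at hw0
  have hxP : Frame.Perp (oFrame D) (y + (-1 : F) • v1) := fun p => by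
    rw [(oFrame D).add_left, Frame.smul_left, hyP p, hp p, mul_zero, add_zero]
  refine orth_finish D hv hp hn2 hwS hP hxP (fun t => ?_)
    (hspan (-1) (by rw [ha, c2, zero_mul, add_zero]; exact one_ne_zero)) hplane
  rcases one_eq t with rfl | rfl
  · rw [zero_smul]; exact eIn_zero D S (D.sing _)
  · rw [one_smul, p1, neg_one_smul, ← sub_eq_add_neg]; exact hw0

end CfsgLib.TwoGenClassical
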